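import Cfsg.Agent.H1.U5Ord

/-! The order of `SU_7(q)`, the number of vectors of a given norm. -/

set_option autoImplicit false
set_option linter.unusedSectionVars false
set_option linter.unusedVariables false

namespace Cfsg.Agent.H6.U7

open Module Cfsg.Agent.H5.U Cfsg.Agent.H5.U.HF Cfsg.Agent.H6.U5

/-- the order of `SU_7(q)` -/
def ordU (q : ℕ) : ℤ :=
  q ^ 21 * (q ^ 2 - 1) * (q ^ 3 + 1) * (q ^ 4 - 1) * (q ^ 5 + 1) * (q ^ 6 - 1) * (q ^ 7 + 1)

theorem uU_six (q : ℕ) : uU q 6 = q ^ 5 * (q ^ 6 - 1) := by simp only [uU]; ring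
theorem uU_seven (q : ℕ) : uU q 7 = q ^ 6 * (q ^ 7 + 1) := by simp only [uU]; ring

variable {F : Type*} {V : Type*} [Field F] [StarRing F] [NStar F] [Fintype F] [AddCommGroup V]
  [Module F V] {h : HF F V} {q : ℕ}

/-- the number of vectors of norm `t ≠ 0` in dimension seven -/
theorem card_vec_norm [FiniteDimensional F V] (hV : finrank F V = 7) (hq : Fintype.card F = q ^ 2)
    (hst : ∀ t : F, star t = t ^ q) {t : F} (ht : star t = t) (t0 : t ≠ 0) :
    Nat.card {x : V // h x x = t} = q ^ 6 * (q ^ 7 + 1) := by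
  have := cnt (h := h) hq hst 7 ⊤ ndOn_top (by simpa using hV) t ht
  rw [if_neg t0, uU_seven] at this
  simp only [Submodule.mem_top, true_and] at this
  exact_mod_cast this

theorem card_SU7 (h : HF F V) (hV : finrank F V = 7) (hq : Fintype.card F = q ^ 2)
    (hst : ∀ t : F, star t = t ^ q) : (Nat.card h.SU : ℤ) ∣ ordU q := by
  haveI : FiniteDimensional F V := Module.finite_of_finrank_pos (by omega)
  have h1 := card_GU (h := h) hq hst
  rw [← card_SU_mul hq hst (by omega), hV] at h1
  simp only [Finset.prod_range_succ, Finset.prod_range_zero, zero_add, uU_one] at h1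
  norm_num only [uU_two, uU_three, uU_four, uU_five, uU_six, uU_seven] at h1
  push_cast at h1
  exact (mul_right_cancel₀ (show (q + 1 : ℤ) ≠ 0 by omega) (by rw [h1, ordU]; ring)).dvd

end Cfsg.Agent.H6.U7
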