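import Cfsg.Agent.H1.S7.B
import Cfsg.Agent.H1.U7.Ord

/-! Degrees which do not divide the order of `SU_7(q)`. -/

set_option autoImplicit false

namespace Cfsg.Agent.H6.U7

open Cfsg.Agent.H6.S5 (Rd)
open Cfsg.Agent.H2.S7 (rd_pp ord7 ord7_eq)

theorem bound {q g c d : ℤ}
    (hp : Rd (g * (q ^ 6 + q ^ 5 + q ^ 4 + q ^ 3 + q ^ 2 + q + 1) - c) (q ^ 21) (g - c))
    (h : g * (q ^ 6 + q ^ 5 + q ^ 4 + q ^ 3 + q ^ 2 + q + 1) - c ∣ d * ord7 q) :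
    g * (q ^ 6 + q ^ 5 + q ^ 4 + q ^ 3 + q ^ 2 + q + 1) - c ∣ d * ((g - c) * (7 * g - c) ^ 6 * (g - c) ^ 3 *
      (g - c) ^ 2 * (g ^ 2 + c ^ 2) *
      ((g - c) ^ 4 - (g - c) ^ 3 * g + (g - c) ^ 2 * g ^ 2 - (g - c) * g ^ 3 + g ^ 4) * (g - c) * c) :=
  (((((((hp.mul
    ((Rd.of (a := q - 1) (-g * (q ^ 5 + 2 * q ^ 4 + 3 * q ^ 3 + 4 * q ^ 2 + 5 * q + 6)) 1
      (by ring)).pow 6)).mul
    ((Rd.of (a := q + 1) (-g * (q ^ 5 + q ^ 3 + q)) 1 (by ring)).pow 3)).mul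
    ((Rd.of (a := q ^ 2 + q + 1) (-g * (q ^ 4 + q)) 1 (by ring)).pow 2)).mul
    (Rd.of (a := q ^ 2 + 1) (g * (q ^ 5 * g + q ^ 4 * g + q ^ 4 * c + q ^ 3 * c + q * g + g + c))
      (-(g * q + c)) (by ring))).mul
    (Rd.of (a := q ^ 4 + q ^ 3 + q ^ 2 + q + 1) (q ^ 5 * g ^ 4 + q ^ 4 * g ^ 3 * c + q ^ 3 * g ^ 4 -
      q ^ 3 * g ^ 3 * c + q ^ 3 * g ^ 2 * c ^ 2 + 2 * q ^ 2 * g ^ 3 * c - 2 * q ^ 2 * g ^ 2 * c ^ 2 +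
      q ^ 2 * g * c ^ 3 + g ^ 4) (-q ^ 3 * g ^ 3 - q ^ 2 * g ^ 2 * c - q * g ^ 3 + q * g ^ 2 * c -
      q * g * c ^ 2 - 2 * g ^ 2 * c + 2 * g * c ^ 2 - c ^ 3) (by ring))).mul
    (Rd.of (a := q ^ 2 - q + 1) (-g * (q ^ 4 + 2 * q ^ 3 + 2 * q ^ 2 + q)) 1 (by ring))).mul
    (Rd.of (a := q ^ 6 + q ^ 5 + q ^ 4 + q ^ 3 + q ^ 2 + q + 1) g (-1) (by ring))) d (ord7_eq q ▸ h)

theorem bound' {q : ℤ} (hr : q - 1 ≠ 0)
    (hp : Rd (q ^ 5 + 2 * q ^ 4 + 3 * q ^ 3 + 4 * q ^ 2 + 5 * q + 6) (q ^ 21) 6)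
    (h : (q ^ 6 + q ^ 5 + q ^ 4 + q ^ 3 + q ^ 2 + q + 1 - 7 : ℤ) ∣ 7 * ord7 q) :
    (q ^ 5 + 2 * q ^ 4 + 3 * q ^ 3 + 4 * q ^ 2 + 5 * q + 6 : ℤ) ∣
      7 * (6 * 21 ^ 5 * 3 ^ 3 * 6 ^ 2 * 50 * 1555 * 6 * 7) := by
  refine (((((((hp.mul
    ((Rd.of (a := q - 1) (-(q ^ 4 + 3 * q ^ 3 + 6 * q ^ 2 + 10 * q + 15)) 1 (by ring)).pow 5)).mul
    ((Rd.of (a := q + 1) (-(q ^ 4 + q ^ 3 + 2 * q ^ 2 + 2 * q + 3)) 1 (by ring)).pow 3)).mul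
    ((Rd.of (a := q ^ 2 + q + 1) (q ^ 4 + q) (1 - q) (by ring)).pow 2)).mul
    (Rd.of (a := q ^ 2 + 1) (q ^ 5 + 8 * q ^ 4 + 7 * q ^ 3 + q + 8) (-q ^ 2 - 6 * q + 7) (by ring))).mul
    (Rd.of (a := q ^ 4 + q ^ 3 + q ^ 2 + q + 1) (q ^ 5 + 7 * q ^ 4 + 43 * q ^ 3 + 259 * q ^ 2 + 1)
      (-q ^ 4 - 6 * q ^ 3 - 36 * q ^ 2 - 216 * q + 259) (by ring))).mul
    (Rd.of (a := q ^ 2 - q + 1) (q ^ 4 + 2 * q ^ 3 + 2 * q ^ 2 + q) (1 - q) (by ring))).mul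
    (Rd.of (a := q ^ 6 + q ^ 5 + q ^ 4 + q ^ 3 + q ^ 2 + q + 1) 1 (1 - q) (by ring))) 7 ?_
  refine (mul_dvd_mul_iff_left hr).1 ?_
  exact (Dvd.intro 1 (by ring)).trans (h.trans (Dvd.intro 1 (by rw [ord7_eq]; ring)))

theorem rd_neg {D r : ℤ} {q : ℕ} (hq : IsPrimePow q) (u : ℤ) (e : D = -q * u + r) (r0 : r ≠ 0)
    (hr : |r| < q) : Rd D ((-q) ^ 21) r := fun Y h =>
  rd_pp hq 21 (-u) (by rw [e]; ring) r0 hr Y (by rwa [Odd.neg_pow (by decide), mul_neg, dvd_neg] at h)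

theorem small : ∀ k : Fin 950, ∀ g : Fin 7, ∀ x : Fin 2, ¬ (g = 6 ∧ x = 0) →
    (7 * ordU (7 * k.1 + 13)) % ((g.1 + 1) * ((7 * k.1 + 13) ^ 6 - (7 * k.1 + 13) ^ 5 + (7 * k.1 + 13) ^ 4 -
      (7 * k.1 + 13) ^ 3 + (7 * k.1 + 13) ^ 2 - (7 * k.1 + 13) + 1) - 7 * (x.1 + 1)) ≠ 0 := by
  decide +kernel

theorem numU {q t d : ℕ} (hq : IsPrimePow q) (ht : d * t * (q + 1) = q ^ 7 + 1)
    (hd : d = 1 ∨ d = 7 ∧ q % 7 = 6) {g x : ℤ} (g1 : 1 ≤ g) (g2 : g ≤ d) (hx : x = 1 ∨ x = 2)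
    (hn : ¬ (g = d ∧ x = 1)) : ¬ g * t - x ∣ ordU q := fun h => by
  have h2 := hq.two_le
  have ht' : (d : ℤ) * t = q ^ 6 - q ^ 5 + q ^ 4 - q ^ 3 + q ^ 2 - q + 1 := by
    have : ((d * t * (q + 1) : ℕ) : ℤ) = (q ^ 7 + 1 : ℕ) := by rw [ht]
    push_cast at this
    exact mul_right_cancel₀ (show (q + 1 : ℤ) ≠ 0 by omega) (by rw [this]; ring)
  replace h := mul_dvd_mul_left (d : ℤ) h
  rw [mul_sub, mul_left_comm, ht'] at h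
  have h' : g * ((-q) ^ 6 + (-q) ^ 5 + (-q) ^ 4 + (-q) ^ 3 + (-q) ^ 2 + (-q) + 1) - d * x ∣
      d * ord7 (-q) := by
    rw [show ord7 (-q) = ordU q by simp only [ordU, ord7]; ring]
    exact (Dvd.intro 1 (by ring)).trans h
  have lt : ∀ {n : ℕ} {K : ℤ}, K ≠ 0 →
      g * ((-q) ^ 6 + (-q) ^ 5 + (-q) ^ 4 + (-q) ^ 3 + (-q) ^ 2 + (-q) + 1) - d * x ∣ K →
      |K| < g * n ^ 6 → d ≤ 7 → q < n + 1 := fun {n K} k0 e l d5 => by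
    by_contra! hh
    have a := Int.le_of_dvd (abs_pos.2 k0) ((dvd_abs _ _).2 e)
    obtain ⟨s, rfl⟩ : ∃ s, q = s + 2 := ⟨q - 2, by omega⟩
    have b : (n : ℤ) ^ 6 ≤ (s + 1) ^ 6 := by gcongr; exact_mod_cast (by omega : n ≤ s + 1)
    have d' : (d : ℤ) ≤ 7 := by exact_mod_cast d5
    have : (0 : ℤ) ≤ 5 * s ^ 5 + 36 * s ^ 4 + 107 * s ^ 3 + 162 * s ^ 2 + 123 * s := by positivity
    push_cast at a
    rcases hx with rfl | rfl <;> nlinarith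
  rcases hd with rfl | ⟨rfl, h5⟩
  · obtain rfl : g = 1 := by omega
    obtain rfl : x = 2 := by omega
    have := lt (n := 10) (by decide) (bound (rd_neg hq ((-q) ^ 5 + (-q) ^ 4 + (-q) ^ 3 + (-q) ^ 2 + (-q) + 1)
      (by ring) (by decide) (by norm_num; omega)) h') (by decide) (by decide)
    interval_cases q <;> revert h <;> decide +kernel
  have : q < 6601 := by
    by_contra! hh
    by_cases e : g = x
    · subst e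
      have := Int.le_of_dvd (by decide) ((neg_dvd).2 (bound' (q := -q) (by omega)
        (rd_neg hq ((-q) ^ 4 + 2 * (-q) ^ 3 + 3 * (-q) ^ 2 + 4 * (-q) + 5) (by ring) (by decide)
          (by norm_num; omega)) ((Dvd.intro_left g (by push_cast; ring)).trans h')))
      have c : (6601 : ℤ) ≤ q := by exact_mod_cast hh
      generalize (q : ℤ) = Q at this c
      have c4 := pow_le_pow_left₀ (by decide) c 4
      have c2 := pow_le_pow_left₀ (by decide) c 2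
      have a1 : 0 ≤ Q ^ 4 * (Q - 6601) := mul_nonneg (by positivity) (by omega)
      have a2 : 0 ≤ Q ^ 2 * (Q - 6601) := mul_nonneg (by positivity) (by omega)
      norm_num at this c4 c2
      linarith
    · refine absurd (lt (n := 6600) ?_ (bound (rd_neg hq (g * ((-q) ^ 5 + (-q) ^ 4 + (-q) ^ 3 + (-q) ^ 2 +
        (-q) + 1)) (by ring) (by omega) (by rw [abs_lt]; omega)) h') ?_ le_rfl)
        (by omega) <;>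
        rcases hx with rfl | rfl <;> interval_cases g <;> simp_all
  obtain ⟨g, rfl⟩ : ∃ k : ℕ, g = k + 1 := ⟨(g - 1).toNat, by omega⟩
  obtain ⟨x, rfl⟩ : ∃ k : ℕ, x = k + 1 := ⟨(x - 1).toNat, by omega⟩
  have := hq.ne_one
  have : q ≠ 6 := by rintro rfl; revert hq; decide
  obtain ⟨k, rfl⟩ : ∃ k : ℕ, q = 7 * k + 13 := ⟨(q - 13) / 7, by omega⟩
  exact small ⟨k, by omega⟩ ⟨g, by omega⟩ ⟨x, by omega⟩ (by simp [Fin.ext_iff]; omega)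
    (Int.emod_eq_zero_of_dvd (by simpa using h))

end Cfsg.Agent.H6.U7
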