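import Cfsg.Agent.H1.U7.X2
import Cfsg.Agent.H4.U5.CH
import Cfsg.Agent.H1.U7.Num

/-! Constituents of a character which is almost regular on a subgroup with automizer seven. -/

set_option autoImplicit false
set_option linter.unusedSectionVars false

namespace Cfsg.Agent.H6.U7

open Cfsg Finset H1 H2 H4.CA Subgroup
open Cfsg.Agent.H6.U5 (LocB IO inner_resO exists_coefO deg_dvd_index)
open scoped ComplexConjugate Classical

universe u

variable {G : Type u} [Group G] [Fintype G] {T B : Subgroup G}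

theorem exists_XE (h : LocB T B)
    (hN : Nat.card (normalizer (T : Set G)) = 7 * Nat.card T * Nat.card B) (ht : 43 ≤ Nat.card T)
    (hK : ∀ K : Subgroup G, K.Normal → T ≤ K → K = ⊤) (ν : B →* ℂˣ) :
    ∃ D : XE (IO ν) (T →* ℂˣ), D.e = 1 ∧ (∀ ψ, ψ.1.1 1 = D.d ψ) ∧
      (∀ ψ l, classInner (fun a => (l a : ℂ)) (fun a : T => ψ.1.1 a) = D.m l ψ) ∧
      (∀ ψ (a : T), ψ.1.1 a = ∑ l, D.m l ψ * (l a : ℂ)) ∧
      (∀ ψ, (∀ l, l ≠ D.e → D.m l ψ = 0) → ψ.1.1 = fun _ => 1) := by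
  choose d hd0 hd using fun ψ : IrrCharacter G => irr_deg ψ.2
  choose m hm1 hm2 using fun ψ => h.exists_mult ψ
  have hdv : ∀ l k : T →* ℂˣ, Nat.card T * Nat.card B ∣ cnt l k := fun l k => by
    rcases cnt_cases l k with e | e <;> rw [e]
    · simp
    · by_cases hl : l = 1
      · rw [hl, cnt_one_one, hN, mul_assoc]; simp
      · rw [h.cnt_self hl]
  choose c hc using hdv
  have ha : 0 < Nat.card T * Nat.card B := Nat.mul_pos Nat.card_pos Nat.card_pos
  have hself : ∀ l : T →* ℂˣ, l ≠ 1 → c l l = 1 := fun l hl =>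
    Nat.eq_of_mul_eq_mul_left ha (by rw [← hc, h.cnt_self hl, mul_one])
  have hzero : ∀ l k : T →* ℂˣ, cnt l k = 0 → c l k = 0 := fun l k e =>
    Nat.eq_of_mul_eq_mul_left ha (by rw [← hc, e, mul_zero])
  refine ⟨
    { d := fun ψ => d ψ.1
      d_pos := fun ψ => by exact_mod_cast hd0 ψ.1
      e := 1
      c := fun l k => c l k
      m := fun l ψ => m ψ.1 l
      big := h.card_dual ▸ ht
      c_e' := fun l hl => by rw [hzero _ _ (cnt_one hl)]; rfl
      c_symm := fun l k => congrArg Nat.cast (Nat.eq_of_mul_eq_mul_left ha (by rw [← hc, cnt_symm, hc]))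
      c_self := fun l hl => by rw [hself l hl]; rfl
      c_cases := fun l k hl => by
        rcases cnt_cases l k with e | e
        · exact .inl (by rw [hzero _ _ e]; rfl)
        · rw [hc, hc, hself l hl] at e
          exact .inr (by rw [Nat.eq_of_mul_eq_mul_left ha e]; rfl)
      c_card := fun l => by
        have := sum_cnt l
        simp only [hc, hN, ← mul_sum] at this
        exact_mod_cast Nat.eq_of_mul_eq_mul_left ha (this.trans (by ring))
      inner' := fun l k l' => by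
        have := h.key ν l k l'
        rw [hc, hc, Nat.cast_mul _ (c _ _), Nat.cast_mul _ (c _ _), ← mul_sub,
          inv_mul_cancel_left₀ (by exact_mod_cast ha.ne')] at this
        simp only [df, classInner_sub_left, hm2, classInner_conj (fun a : T => (_ : G → ℂ) a),
          map_natCast] at this
        exact_mod_cast this
      m_nonneg := fun l ψ => Nat.cast_nonneg _
      sum_m := fun ψ => by
        have := hm1 ψ.1 1
        simp only [OneMemClass.coe_one, hd, map_one, Units.val_one, mul_one] at this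
        exact_mod_cast this.symm }, rfl, fun ψ => by simp [hd], fun ψ l => by simp [hm2],
    fun ψ a => by simp [hm1], fun ψ e => S5.eq_one_of_ker hK ψ.1.2 fun a => ?_⟩
  have : ∀ a : T, ψ.1.1 a = m ψ.1 1 := fun a => by
    rw [hm1, sum_eq_single 1 (fun l _ hl => by simp [Nat.cast_eq_zero.1 (e l hl)]) (by simp)]; simp
  rw [this, ← this 1]; rfl

/-- the data describe the irreducible characters over `ν` -/
structure Dat {ν : B →* ℂˣ} (D : XE (IO ν) (T →* ℂˣ)) : Prop where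
  e : D.e = 1
  hd : ∀ ψ, ψ.1.1 1 = D.d ψ
  hm : ∀ ψ l, classInner (fun a => (l a : ℂ)) (fun a : T => ψ.1.1 a) = D.m l ψ
  hm1 : ∀ ψ (a : T), ψ.1.1 a = ∑ l, D.m l ψ * (l a : ℂ)
  ker : ∀ ψ, (∀ l, l ≠ D.e → D.m l ψ = 0) → ψ.1.1 = fun _ => 1

theorem Dat.sq (h : LocB T B) {ν : B →* ℂˣ} {D : XE (IO ν) (T →* ℂˣ)} {E : XE (IO (1 : B →* ℂˣ)) (T →* ℂˣ)}
    (H : Dat D) (H' : Dat E) {ψ : IO ν} (hψ : D.Small ψ) :
    D.m D.e ψ = 0 ∧ ∃ χ, E.Small χ ∧ E.m E.e χ = 1 := by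
  obtain ⟨e, hd, hm, hm1, -⟩ := H
  obtain ⟨e', hd', hm', -, ker'⟩ := H'
  have h2 := hψ.deg
  obtain ⟨l, hl, h1, h0⟩ := hψ
  have hM : D.m D.e ψ = 0 ∨ D.m D.e ψ = 1 := by have := D.m_nonneg D.e ψ; omega
  have h4 : ∑ l, D.m l ψ ^ 2 = 7 + D.m D.e ψ := by
    rw [← h2, ← D.sum_m]
    refine sum_congr rfl fun j _ => ?_
    by_cases e : j = D.e
    · rcases hM with f | f <;> simp [e, f]
    · rcases D.c_cases l j hl with f | f <;> simp [h1 j e, f]
  have i := classInner_irr ψ.1.2 ψ.1.2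
  have iv := fun g => IsIrr.inv ψ.1.2 g
  have h3 : classInner (fun a : T => ∑ k, ((D.m k ψ : ℂ) • fun a => (k a : ℂ)) a)
      (fun a : T => ψ.1.1 a) = ∑ l, (D.m l ψ : ℂ) ^ 2 := by
    rw [classInner_sum_left]
    simp only [classInner_smul_left, hm, pow_two]
  simp only [Pi.smul_apply, smul_eq_mul, ← hm1] at h3
  obtain ⟨k, ρ, -, hρ⟩ := ψ.1.2
  obtain ⟨b, b1, b2⟩ := exists_coefO h.cen 1 (ρ.linHom ρ) fun g b => by
    simp only [Representation.char_linHom, hρ, iv, ψ.2, map_mul, hom_conj]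
    rw [mul_mul_mul_comm]; simp
  let o : IO (1 : B →* ℂˣ) := ⟨⟨_, isIrr_one G⟩, by simp⟩
  have c1 : (b o : ℤ) = 1 := by
    have := b1 o
    simp only [classInner, Representation.char_linHom, hρ, map_one, mul_one, iv, if_true,
      mul_comm (conj _), o] at this i
    exact_mod_cast this.symm.trans i
  have c2 : ∑ χ, b χ * E.d χ = (7 + D.m D.e ψ) ^ 2 := by
    have := b2 1
    simp only [Representation.char_linHom, hρ, inv_one, hd, hd', h2, ← pow_two] at this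
    exact_mod_cast this.symm
  have c3 : ∑ χ, b χ * E.m E.e χ = 7 + D.m D.e ψ := by
    have := inner_resO b2 (T := T) fun a => ((1 : T →* ℂˣ) a : ℂ)
    simp only [hm'] at this
    simp only [classInner, Representation.char_linHom, hρ, iv, MonoidHom.one_apply, Units.val_one,
      one_mul, map_mul, Complex.conj_conj] at this h3
    rw [e', ← h4]
    exact_mod_cast this.symm.trans h3
  have c4 := hm' o 1
  rw [show (fun a : T => o.1.1 a) = fun a => ((1 : T →* ℂˣ) a : ℂ) from rfl, classInner_hom, if_pos rfl,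
    ← e'] at c4
  exact E.sq (o := o) (by exact_mod_cast c4.symm) (by exact_mod_cast (show (E.d o : ℂ) = 1 from (hd' o).symm))
    (fun χ k => Subtype.ext (Subtype.ext (ker' χ k))) _ (fun _ => Nat.cast_nonneg _) c1 hM c2 c3

theorem triv (h : LocB T B)
    (hN : Nat.card (normalizer (T : Set G)) = 7 * Nat.card T * Nat.card B) (ht : 43 ≤ Nat.card T)
    (hK : ∀ K : Subgroup G, K.Normal → T ≤ K → K = ⊤) (ν : B →* ℂˣ) :
    ∃ D : XE (IO ν) (T →* ℂˣ), D.e = 1 ∧ (∀ ψ, ψ.1.1 1 = D.d ψ) ∧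
      (∀ ψ l, classInner (fun a => (l a : ℂ)) (fun a : T => ψ.1.1 a) = D.m l ψ) ∧
      D.Triv fun ψ => ψ.1.1 = fun _ => 1 := by
  obtain ⟨D, e, hd, hm, hm1, ker⟩ := exists_XE h hN ht hK ν
  obtain ⟨E, e', hd', hm', hm1', ker'⟩ := exists_XE h hN ht hK 1
  have H : Dat E := ⟨e', hd', hm', hm1', ker'⟩
  refine ⟨D, e, hd, hm, ker, fun ψ χ h1 h2 => Subtype.ext (Subtype.ext (h1.trans h2.symm)),
    fun ψ h1 => ?_, fun ψ hψ => ?_⟩
  · have : ∀ l, (D.m l ψ : ℂ) = if l = 1 then 1 else 0 := fun l => by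
      rw [← hm, ← classInner_hom l 1, h1]; rfl
    exact ⟨by exact_mod_cast (this _).trans (if_pos e),
      fun l hl => by exact_mod_cast (this l).trans (if_neg (e ▸ hl))⟩
  obtain ⟨-, χ, h1, h2⟩ := Dat.sq h ⟨e, hd, hm, hm1, ker⟩ H hψ
  have := (Dat.sq h H H h1).1
  omega

theorem CH0 (h : LocB T B) (hN : Nat.card (normalizer (T : Set G)) = 7 * Nat.card T * Nat.card B)
    {t d : ℕ} (hT : Nat.card T = t) (ht : 65 ≤ t ∨ t = 43 ∧ d = 1) (hK : ∀ K : Subgroup G, K.Normal → T ≤ K → K = ⊤)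
    (hd : d = 1 ∨ d = 7) {N : ℤ} (hL : (Nat.card G * d : ℤ) ∣ N * Nat.card B)
    (num : ∀ g x : ℤ, 1 ≤ g → g ≤ d → (x = 1 ∨ x = 2) → ¬ (g = d ∧ x = 1) → ¬ g * t - x ∣ N)
    {W : Type*} [AddCommGroup W] [Module ℂ W] [FiniteDimensional ℂ W] (ρ : Representation ℂ G W)
    (ν : B →* ℂˣ) (hν : ∀ b : B, ρ b = (ν b : ℂ) • 1) {δ : ℕ} (hδ : δ = 0 ∨ δ = 1 ∧ ν = 1)
    (h1 : ∀ a ∈ T, a ≠ 1 → ρ.character a = -δ) (h2 : ρ.character 1 = d * t - δ) :
    IsIrrCharacter G ρ.character ∨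
      (δ = 0 ∧ ∃ ψ, IsIrrCharacter G ψ ∧ ψ ≠ 1 ∧ ρ.character = 1 + ψ) ∨
      (δ = 0 ∧ d = 7 ∧ ∃ ψ, IsIrrCharacter G ψ ∧ (ψ 1 = t ∨ ψ 1 = 2 * t ∨ ψ 1 = 3 * t)) := by
  subst hT
  obtain ⟨D, e, hd', hm, tr⟩ := triv h hN (by omega) hK ν
  obtain ⟨a, -, a2⟩ := exists_coefO h.cen ν ρ fun g b => by
    simp [Representation.character, hν]
  have t0 : (Nat.card T : ℂ) ≠ 0 := by exact_mod_cast Nat.card_pos.ne'
  have s : ∀ {R : Type} [CommRing R] (f : IO ν → R),
      ∑ j : Σ χ, Fin (a χ), f j.1 = ∑ χ, a χ * f χ := fun f => by simp [Fintype.sum_sigma]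
  have m : ∀ l, ∑ j : Σ χ, Fin (a χ), D.m l j.1 = d - if l = 1 then δ else 0 := fun l => by
    have := inner_resO a2 (T := T) fun a => (l a : ℂ)
    have e : (fun x : T => ρ.character x) = (fun x => if x = 1 then (d * Nat.card T : ℂ) else 0) -
        (δ : ℂ) • fun x => ((1 : T →* ℂˣ) x : ℂ) := funext fun x => by
      by_cases hx : x = 1
      · simp [hx, h2]
      · simp [hx, h1 x x.2 fun e => hx (Subtype.ext e)]
    rw [e, classInner_sub_right, classInner_conj _ (_ • _), classInner_smul_left, classInner_hom,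
      classInner, sum_eq_single 1 (fun x _ hx => by simp [hx]) (by simp)] at this
    simp only [hm, if_true, map_one, Units.val_one, one_mul, map_mul, map_natCast, mul_comm (d : ℂ),
      inv_mul_cancel_left₀ t0, eq_comm (b := l)] at this
    rw [s]
    split_ifs at this ⊢ <;> simp only [map_one, map_zero, mul_one, mul_zero] at this <;>
      exact_mod_cast this.symm
  have dv : ∀ ψ, D.d ψ * d ∣ N := fun ψ => by
    refine (mul_dvd_mul_right (deg_dvd_index h.cen ψ.1.2 (hd' ψ)) _).trans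
      ((mul_dvd_mul_iff_left (a := (Nat.card B : ℤ)) (by exact_mod_cast Nat.card_pos.ne')).1 ?_)
    rwa [← mul_assoc, ← Nat.cast_mul, B.card_mul_index, mul_comm _ N]
  have z : ∀ g, ρ.character g = ∑ j : Σ χ, Fin (a χ), j.1.1.1 g := fun g => by
    rw [a2, s fun χ => χ.1.1 g]
  rcases tr.main (J := Σ χ, Fin (a χ)) Sigma.fst (n := d) (δ := δ) (by omega)
    (by omega) (by rw [h.card_dual]; omega)
    (fun l hl => by rw [m, if_neg (e ▸ hl)]; simp) (by rw [m, if_pos e])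
    (fun ψ g x g1 g2 hx f => by_contra fun n => num g x g1 g2 hx n
        (by rw [← h.card_dual, ← f]; exact (dvd_mul_right _ _).trans (dv ψ)))
    with ⟨j, f⟩ | ⟨f, i, j, f1, f2, f3, f4⟩ | ⟨f, f', ψ, f1⟩
  · exact .inl (by rw [funext z, f]; simpa using j.1.1.2)
  · exact .inr (.inl ⟨by omega, _, j.1.1.2, f3, funext fun g => by rw [z, f4, sum_pair f1, f2]; rfl⟩)
  rw [h.card_dual] at f1
  refine .inr (.inr ⟨by omega, by omega, _, ψ.1.2, ?_⟩)
  rw [hd']
  exact_mod_cast f1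

theorem CH {L : Type u} [Group L] [Finite L] {T B : Subgroup L} (hT : ∀ a ∈ T, ∀ b ∈ T, a * b = b * a)
    (hB : B ≤ center L) (cop : (Nat.card T).Coprime (Nat.card B))
    (hC : ∀ a ∈ T, a ≠ 1 → centralizer {a} ≤ T ⊔ B)
    (hN : Nat.card (normalizer (T : Set L)) = 7 * Nat.card T * Nat.card B) {q t d : ℕ}
    (hT' : Nat.card T = t) (hK : ∀ K : Subgroup L, K.Normal → T ≤ K → K = ⊤) (hq : IsPrimePow q)
    (h3 : 2 ≤ q) (ht : d * t * (q + 1) = q ^ 7 + 1) (hd : d = 1 ∨ d = 7 ∧ q % 7 = 6)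
    (hL : (Nat.card L * d : ℤ) ∣ ordU q * Nat.card B)
    {W : Type*} [AddCommGroup W] [Module ℂ W] [FiniteDimensional ℂ W] (ρ : Representation ℂ L W)
    (ν : B →* ℂˣ) (hν : ∀ b : B, ρ b = (ν b : ℂ) • 1) {δ : ℕ} (hδ : δ = 0 ∨ δ = 1 ∧ ν = 1)
    (h1 : ∀ a ∈ T, a ≠ 1 → ρ.character a = -δ) (h2 : ρ.character 1 = d * t - δ) :
    IsIrrCharacter L ρ.character ∨
      (δ = 0 ∧ ∃ ψ, IsIrrCharacter L ψ ∧ ψ ≠ 1 ∧ ρ.character = 1 + ψ) ∨
      (δ = 0 ∧ d = 7 ∧ ∃ ψ, IsIrrCharacter L ψ ∧ (ψ 1 = t ∨ ψ 1 = 2 * t ∨ ψ 1 = 3 * t)) := by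
  have := Fintype.ofFinite L
  refine CH0 ⟨hT, hB, cop, hC⟩ hN hT' ?_ hK (by omega) hL (fun g x => numU hq ht hd) ρ ν hν hδ h1 h2
  by_cases h4 : q = 2
  · subst h4
    obtain rfl : d = 1 := by omega
    omega
  refine .inl (not_lt.1 fun lt => ?_)
  have a : d * t * (q + 1) ≤ d * 64 * (q + 1) := by gcongr; omega
  have b : ∀ n, n ≤ q → n ^ 6 * q ≤ q ^ 7 := fun n hn => by rw [pow_succ q]; gcongr
  have := b 3 (by omega)
  rcases hd with rfl | ⟨rfl, h5⟩ <;> omega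

end Cfsg.Agent.H6.U7
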