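import Cfsg.Agent.H1.U5Fr
import Cfsg.Agent.H1.U7.Fr1
import Cfsg.Agent.H1.S7.D2

/-! A subgroup of `SL_7` containing a Singer element with trivial automizer lies in the field. -/

set_option autoImplicit false
set_option linter.unusedSectionVars false
set_option linter.unusedVariables false

namespace Cfsg.Agent.H6.U7

open Module Subgroup Polynomial
open Cfsg.Agent.H6.S5 (Sm mu mu_apply det_mu)
open Cfsg.Agent.H2.S7 (top_of exists_sm)
open Cfsg.Agent.H6.U5 (card_le_tr)

variable {F K : Type*} [Field F] [Fintype F] [Field K] [Algebra F K] [Finite K]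
  (hK : finrank F K = 7)
include hK

theorem inv_top {c : K} (hc : c ∉ (⊥ : Subalgebra F K)) {W : Submodule F K}
    (h : ∀ w ∈ W, c * w ∈ W) {v : K} (hv : v ∈ W) (v0 : v ≠ 0) (u : K) : u ∈ W := by
  have := top_of hK (S :=
    { carrier := {a | ∀ w ∈ W, a * w ∈ W}
      mul_mem' := fun {x y} hx hy w hw => by rw [mul_assoc]; exact hx _ (hy w hw)
      add_mem' := fun {x y} hx hy w hw => by rw [add_mul]; exact add_mem (hx w hw) (hy w hw)
      algebraMap_mem' := fun μ w hw => by rw [← Algebra.smul_def]; exact W.smul_mem μ hw })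
    hc h (u * v⁻¹) v hv
  simpa [v0] using this

variable {x : Kˣ} {l : ℕ} (hl : l.Prime) (h7 : 11 ≤ l) (ho : orderOf x = l)
  (hx : (x : K) ∉ (⊥ : Subalgebra F K))
include hl ho hx

theorem not_bot {u : Kˣ} (hu : u ∈ zpowers x) (u1 : u ≠ 1) : (u : K) ∉ (⊥ : Subalgebra F K) := by
  obtain ⟨i, rfl⟩ := mem_powers_iff_mem_zpowers.2 hu
  obtain ⟨m, hm⟩ := exists_pow_eq_self_of_coprime (x := x) (n := i) (by
    rw [ho, Nat.coprime_comm, hl.coprime_iff_not_dvd, ← ho, orderOf_dvd_iff_pow_eq_one]; exact u1)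
  exact fun e => hx (by rw [← hm, Units.val_pow_eq_pow_val]; exact pow_mem e m)

theorem surj_of (B : Subalgebra F (End F K)) (hc : ∀ a ∈ B, ∀ b ∈ B, a * b = b * a)
    (hB : ∀ u ∈ zpowers x, ∀ b ∈ B, (mu F u).conjAlgEquiv F b ∈ B) {b : End F K} (hb : b ∈ B)
    (b0 : b ≠ 0) : LinearMap.range b = ⊤ := by
  obtain ⟨a, ⟨a1, a0⟩, hm⟩ := (measure fun a : End F K => finrank F (LinearMap.range a)).wf.has_min
    {a | a ∈ B ∧ a ≠ 0} ⟨b, hb, b0⟩
  replace hm : ∀ c ∈ B, c ≠ 0 → finrank F (LinearMap.range a) ≤ finrank F (LinearMap.range c) :=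
    fun c h1 h2 => not_lt.1 (hm c ⟨h1, h2⟩)
  suffices LinearMap.range a = ⊤ from
    Submodule.eq_top_of_finrank_eq ((Submodule.finrank_le _).antisymm (by
      have := hm b hb b0
      rwa [‹LinearMap.range a = ⊤›, finrank_top] at this))
  by_contra hne
  obtain ⟨w, hw⟩ : ∃ w, a w ≠ 0 := by
    by_contra! hh; exact a0 (LinearMap.ext hh)
  have k1 : ∀ u ∈ zpowers x, u ≠ 1 → a (u * a w) = 0 := fun u hu u1 => by
    have : a * (mu F u).conjAlgEquiv F a = 0 := by
      by_contra c0
      have e := Submodule.eq_of_le_of_finrank_le (LinearMap.range_comp_le_range _ a)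
        (hm _ (mul_mem a1 (hB u hu a a1)) c0)
      refine hne (eq_top_iff.2 fun y _ => inv_top hK (not_bot hK hl ho hx (inv_mem hu)
        (inv_ne_one.2 u1)) (fun y hy => ?_) (LinearMap.mem_range_self a w) hw y)
      rw [← e, ← End.mul_eq_comp, hc _ a1 _ (hB u hu a a1)] at hy
      obtain ⟨y, rfl⟩ := hy
      exact ⟨(mu F u).symm (a y), by simp [LinearEquiv.conjAlgEquiv_apply, mu_apply]⟩
    have := LinearMap.congr_fun this (mu F u w)
    simp only [LinearEquiv.conjAlgEquiv_apply, LinearMap.comp_apply, LinearEquiv.coe_coe,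
      LinearEquiv.symm_apply_apply, End.mul_apply] at this
    exact this
  have x1 : (x : K) ≠ 1 := fun e => hx (e ▸ one_mem _)
  have k2 : a (a w) = 0 := by
    have s : ∑ i ∈ Finset.range l, (x : K) ^ i = 0 := by
      have := geom_sum_mul (x : K) l
      rw [← Units.val_pow_eq_pow_val, ← ho, pow_orderOf_eq_one, Units.val_one, sub_self] at this
      exact (mul_eq_zero.1 this).resolve_right (sub_ne_zero.2 x1) |> (ho ▸ ·)
    have := congrArg (fun y => a (y * a w)) s
    simp only [Finset.sum_mul, map_sum, zero_mul, map_zero] at this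
    rw [Finset.sum_eq_single 0 (fun i hi i0 => by
      exact k1 (x ^ i) (npow_mem_zpowers x i)
        (pow_ne_one_of_lt_orderOf i0 (by simpa [ho] using hi))) (by simp [hl.ne_zero])] at this
    simpa using this
  have := inv_top hK hx (W := ⨅ i : ℕ, LinearMap.ker (a ∘ₗ LinearMap.mulLeft F ((x : K) ^ i)))
    (fun y hy => by
      simp only [Submodule.mem_iInf, LinearMap.mem_ker, LinearMap.comp_apply,
        LinearMap.mulLeft_apply] at hy ⊢
      exact fun i => by rw [← mul_assoc, ← pow_succ]; exact hy _) (v := a w) (by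
      simp only [Submodule.mem_iInf, LinearMap.mem_ker, LinearMap.comp_apply,
        LinearMap.mulLeft_apply]
      intro i
      by_cases e : x ^ i = 1
      · rw [← Units.val_pow_eq_pow_val, e, Units.val_one, one_mul, k2]
      · exact k1 _ (npow_mem_zpowers x i) e) hw w
  exact hw (by simpa using (Submodule.mem_iInf _).1 this 0)

include h7

theorem comm_of (B : Subalgebra F (End F K)) (hc : ∀ a ∈ B, ∀ b ∈ B, a * b = b * a)
    (hB : ∀ u ∈ zpowers x, ∀ b ∈ B, (mu F u).conjAlgEquiv F b ∈ B) {b : End F K} (hb : b ∈ B)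
    (v : K) : b (x * v) = x * b v := by
  classical
  letI : CommRing B := { (inferInstance : Ring B) with
    mul_comm := fun a b => Subtype.ext (hc _ a.2 _ b.2) }
  haveI : NoZeroDivisors B := ⟨fun {a b} e => by
    by_cases b0 : b = 0
    · exact .inr b0
    refine .inl (Subtype.ext (LinearMap.ext fun y => ?_))
    obtain ⟨y, rfl⟩ := (surj_of hK hl ho hx B hc hB b.2 fun e => b0 (Subtype.ext e)).ge
      (Submodule.mem_top (x := y))
    exact LinearMap.congr_fun (congrArg Subtype.val e) y⟩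
  haveI : IsDomain B := NoZeroDivisors.to_isDomain B
  obtain ⟨i, hi, j, hj, ne, e⟩ := Finset.exists_ne_map_eq_of_card_lt_of_maps_to
    (s := Finset.range l) (t := (b.charpoly.aroots B).toFinset)
    (f := fun i => ⟨_, hB _ (npow_mem_zpowers x i) b hb⟩)
    (((Multiset.toFinset_card_le _).trans ((card_roots' _).trans natDegree_map_le)).trans_lt (by
      rw [LinearMap.charpoly_natDegree, hK, Finset.card_range]; omega)) fun i _ => by
      simp only [Finset.mem_coe, Multiset.mem_toFinset, mem_aroots]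
      refine ⟨b.charpoly_monic.ne_zero, Subtype.ext ?_⟩
      have := aeval_algHom_apply B.val ⟨_, hB _ (npow_mem_zpowers x i) b hb⟩ b.charpoly
      refine this.symm.trans ?_
      have := aeval_algHom_apply ((mu F (x ^ i)).conjAlgEquiv F) b b.charpoly
      rw [LinearMap.aeval_self_charpoly, map_zero] at this
      exact this
  have u1 : (x ^ j)⁻¹ * x ^ i ≠ 1 := fun e => ne (pow_injOn_Iio_orderOf
    (by simpa [ho] using hi) (by simpa [ho] using hj) (inv_mul_eq_one.1 e).symm)
  have := top_of hK (S := (Subalgebra.centralizer F {b}).comap (Algebra.lmul F K))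
    (not_bot hK hl ho hx (mul_mem (inv_mem (npow_mem_zpowers x j)) (npow_mem_zpowers x i)) u1)
    (by
      intro b' hb'
      obtain rfl : b = b' := hb'.symm
      ext y
      have := LinearMap.congr_fun (congrArg Subtype.val e) (mu F (x ^ i) y)
      simp only [LinearEquiv.conjAlgEquiv_apply, LinearMap.comp_apply, LinearEquiv.coe_coe,
        LinearEquiv.symm_apply_apply] at this
      have k : (mu F (x ^ j)).symm (mu F (x ^ i) y) = ((x ^ j)⁻¹ * x ^ i : Kˣ) * y := by
        rw [← mu_apply (F := F), map_mul, map_inv]; rfl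
      rw [k, mu_apply, mu_apply] at this
      show b (((x ^ j)⁻¹ * x ^ i : Kˣ) * y) = ((x ^ j)⁻¹ * x ^ i : Kˣ) * b y
      rw [Units.val_mul _ (x ^ i), mul_assoc _ _ (b y), this, ← mul_assoc, Units.inv_mul, one_mul,
        Units.val_mul]) x
  exact LinearMap.congr_fun (this b rfl) v

omit hl ho hx h7 in
theorem frob7 {L : Subgroup (K ≃ₗ[F] K)} (hL : L ≤ SLV F K) {x : Kˣ} {l : ℕ} (hl : l.Prime)
    (h7 : 11 ≤ l) (ho : orderOf x = l) (hx : (x : K) ∉ (⊥ : Subalgebra F K)) (hxL : mu F x ∈ L)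
    (hN : ∀ g ∈ L, GamL K g → g ∈ (mu F).range) : L ≤ (mu F).range := by
  haveI : Finite (K ≃ₗ[F] K) := Finite.of_injective _ DFunLike.coe_injective
  let sc : Fˣ →* (K ≃ₗ[F] K) := (mu F).comp (Units.map (algebraMap F K : F →* K))
  have sa : ∀ c v, sc c v = (c : F) • v := fun c v => (Algebra.smul_def _ _).symm
  have s5 : ∀ c, sc c ∈ L → c ^ 7 = 1 := fun c h => Units.ext (by
    have := mem_SLV'.1 (hL h)
    rw [show sc c = mu F _ from rfl, det_mu] at this
    simpa [Algebra.norm_algebraMap, hK] using this)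
  have inj : Function.Injective (mu F : Kˣ →* (K ≃ₗ[F] K)) := fun a b e =>
    Units.ext (by simpa [mu_apply] using DFunLike.congr_fun e 1)
  let ρ : L →* End F K := LinearEquiv.automorphismGroup.toLinearMapMonoidHom.comp L.subtype
  have zc : Nat.card (sc.range.subgroupOf L) ≤ 7 := by
    rw [← card_map_of_injective L.subtype_injective]
    refine (card_le_of_le (K := (rootsOfUnity 7 F).map sc) ?_).trans
      ((Nat.le_of_dvd Nat.card_pos (card_map_dvd _ _)).trans (card_rootsOfUnity F 7))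
    rintro _ ⟨g, ⟨c, hc⟩, rfl⟩
    exact ⟨c, s5 c (hc ▸ g.2), hc⟩
  rw [← subgroupOf_eq_top]
  refine FH.top (Z := sc.range.subgroupOf L) (x := ⟨_, hxL⟩) (l := l)
    ⟨hl, h7, ?_, ⟨x, rfl⟩, ?_, ⟨?_⟩, ?_, ?_, zc, ?_, fun B hc hB b hb => ?_, fun S h1 ⟨s, h2, h3⟩ => ?_⟩
  · rw [← orderOf_coe, orderOf_injective _ inj, ho]
  · rintro ⟨_, _⟩ ⟨a, rfl⟩ ⟨_, _⟩ ⟨b, rfl⟩
    exact Subtype.ext ((map_mul _ _ _).symm.trans ((congrArg _ (mul_comm a b)).trans (map_mul _ _ _)))
  · rintro ⟨_, _⟩ ⟨a, rfl⟩ ⟨g, hg⟩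
    exact ⟨a, LinearEquiv.ext fun v => by simp [sa]⟩
  · rintro ⟨_, _⟩ ⟨a, rfl⟩
    exact ⟨_, rfl⟩
  · rintro ⟨_, h⟩ ⟨a, rfl⟩
    exact Subtype.ext ((map_pow sc a 7).symm.trans (by rw [s5 a h, map_one]; rfl))
  · rintro ⟨g, hg⟩ ⟨_, _⟩ ⟨a, rfl⟩ ha ⟨c, hc⟩
    obtain ⟨σ, h, -⟩ := exists_sm hK (g := g) (c := a) (c' := c) (fun e => ha (by
      obtain ⟨μ, hμ⟩ := Algebra.mem_bot.1 e
      exact ⟨Units.mk0 μ (by rintro rfl; exact a.ne_zero (by simpa using hμ.symm)),
        congrArg (mu F) (Units.ext hμ)⟩)) fun v => by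
      simpa [mu_apply] using (DFunLike.congr_fun hc (g v)).symm
    exact hN g hg h.gamL
  · have := comm_of hK hl h7 ho hx (Algebra.adjoin F (ρ '' B)) (fun a ha b hb =>
      Algebra.commute_of_mem_adjoin_of_forall_mem_commute hb fun b hb =>
        (Algebra.commute_of_mem_adjoin_of_forall_mem_commute ha (by
          rintro _ ⟨a, ha, rfl⟩
          obtain ⟨b, hb, rfl⟩ := hb
          exact (map_mul ρ _ _).symm.trans ((congrArg ρ (hc b hb a ha)).trans (map_mul ρ _ _)))).symm)
      (fun u hu b hb => by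
        obtain ⟨i, rfl⟩ := hu
        refine (Algebra.adjoin_le (S := (Algebra.adjoin F (ρ '' B)).comap
          ((mu F (x ^ i)).conjAlgEquiv F).toAlgHom) ?_) hb
        rintro _ ⟨b, hb, rfl⟩
        refine Algebra.subset_adjoin ⟨_, H7.BD.nm (zpow_mem hB i) hb, ?_⟩
        ext v
        simp [ρ, LinearEquiv.conjAlgEquiv_apply]) (Algebra.subset_adjoin ⟨b, hb, rfl⟩)
    exact Subtype.ext (LinearEquiv.ext this)
  · have k : ∀ s ∈ S, s ∉ sc.range.subgroupOf L → ∃ c : F, c ≠ 1 ∧ c ^ 7 = 1 ∧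
        LinearMap.trace F K (ρ s) = c * LinearMap.trace F K (ρ s) := fun s h2 h3 => by
      obtain ⟨k, ⟨_, h⟩, ⟨c, rfl⟩, c1, e⟩ := h1 s h2 h3
      refine ⟨c, fun e => c1 (Subtype.ext ?_), by simpa using congrArg Units.val (s5 c h), ?_⟩
      · exact (congrArg sc (Units.ext e)).trans (map_one sc)
      · have := congrArg (fun g => LinearMap.trace F K (ρ g)) e
        simp only [map_mul] at this
        rw [LinearMap.trace_mul_comm, ← mul_assoc, ← map_mul, inv_mul_cancel, map_one, one_mul,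
          show ρ ⟨sc c, h⟩ * ρ s = (c : F) • ρ s from LinearMap.ext fun v => sa c _, map_smul] at this
        exact this
    obtain ⟨c, c1, c5, -⟩ := k s h2 h3
    have := card_le_tr ρ (Z := sc.range.subgroupOf L) (S := S) (fun s h2 h3 => by
      obtain ⟨c, c1, -, e⟩ := k s h2 h3
      exact (mul_eq_zero.1 (show (c - 1) * _ = 0 by linear_combination -e)).resolve_left
        (sub_ne_zero.2 c1)) (by
      rw [hK]
      exact fun e => c1 (sub_eq_zero.1 (pow_eq_zero_iff (n := 7) (by omega) |>.1 (by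
        push_cast at e
        linear_combination c5 + (-c ^ 6 + 3 * c ^ 5 - 5 * c ^ 4 + 5 * c ^ 3 - 3 * c ^ 2 + c) * e))))
    rw [hK] at this
    omega

end Cfsg.Agent.H6.U7
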