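import Cfsg.Agent.H6.U5.W7

/-! Not too many Weil characters of `SU_7(q)`, `q ≥ 3`, have a trivial constituent. -/

set_option autoImplicit false
set_option linter.unusedSectionVars false

namespace Cfsg.Agent.H6.U7

open Module LinearMap Finset H5.U H6.S5 H6.U5 Polynomial
open scoped Classical

variable {F K : Type*} [Field F] [Fintype F] [StarRing F] [NStar F] [Field K] [Algebra F K] [Fintype K]
  [StarRing K] [StarModule F K] [NStar K] {q : ℕ}

theorem star_PN (hK : finrank F K = 7) {γ : K} (hγ : γ + star γ = -1) (a : F) :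
    star (Algebra.norm F (γ + algebraMap F K a)) = -Algebra.norm F (γ + algebraMap F K (1 - star a)) := by
  have : star (γ + algebraMap F K a) = algebraMap F K (-1) * (γ + algebraMap F K (1 - star a)) := by
    simp only [star_add, map_neg, map_one, map_sub, algebraMap_star_comm]
    linear_combination hγ
  rw [star_norm_alg, this, map_mul, Algebra.norm_algebraMap, hK]
  ring

theorem cay_key (hK : finrank F K = 7) (Γ : Finset K) (hΓ : ∀ γ ∈ Γ, γ + star γ = -1)
    (B : Finset F) (S : F → Finset F) (hB : 7 ≤ #(B ∪ B.image fun a => 1 - star a))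
    (hS : ∀ γ ∈ Γ, ∀ c ∈ B, Algebra.norm F (γ + algebraMap F K c) ∈ S c) :
    #Γ ≤ 7 * ∏ b ∈ B, #(S b) := by
  rw [← card_pi]
  refine card_le_mul_card_image_of_maps_to (f := fun (γ : K) b (_ : b ∈ B) => (PN F γ).eval b)
    (fun γ h => mem_pi.2 fun b hb => PN_eval γ b ▸ hS γ h b hb) 7 fun y _ => ?_
  rcases (Γ.filter fun γ => (fun b (_ : b ∈ B) => (PN F γ).eval b) = y).eq_empty_or_nonempty with e | ⟨γ, hγ⟩
  · simp [e]
  refine (card_le_card_of_injOn (t := ((PN F γ).aroots K).toFinset) (fun δ => -δ)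
    (fun δ hδ => ?_) (fun a _ a' _ e => neg_injective e)).trans
    ((Multiset.toFinset_card_le _).trans ((card_roots' _).trans
      (natDegree_map_le.trans ((PN_deg γ).trans hK).le)))
  simp only [coe_filter, mem_filter, Set.mem_setOf_eq] at hγ hδ
  have e1 : ∀ b ∈ B, (PN F δ).eval b = (PN F γ).eval b := fun b hb =>
    congrFun (congrFun (hδ.2.trans hγ.2.symm) b) hb
  have e : PN F δ = PN F γ := by
    refine eq_of_degree_sub_lt_of_eval_finset_eq (B ∪ B.image fun a => 1 - star a) ?_ fun x hx => ?_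
    · refine (degree_sub_lt ?_ (PN_monic δ).ne_zero ?_).trans_le ?_
      · rw [degree_eq_natDegree (PN_monic δ).ne_zero, degree_eq_natDegree (PN_monic γ).ne_zero,
          PN_deg, PN_deg]
      · rw [PN_monic δ, PN_monic γ]
      · rw [degree_eq_natDegree (PN_monic δ).ne_zero, PN_deg, hK]; exact_mod_cast hB
    · refine (mem_union.1 hx).elim (e1 x) fun hx => ?_
      obtain ⟨c, hc, rfl⟩ := mem_image.1 hx
      have e := e1 c hc
      simp only [PN_eval] at e ⊢
      rw [← neg_inj, ← star_PN hK (hΓ δ hδ.1), ← star_PN hK (hΓ γ hγ.1), e]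
  simp only [mem_coe, Multiset.mem_toFinset, mem_aroots, ← e]
  exact ⟨(PN_monic δ).ne_zero, PN_root δ⟩

theorem exists_pairs (hq : Fintype.card F = q ^ 2) (hst : ∀ t : F, star t = t ^ q) (n : ℕ)
    (hn : 2 * n + q ≤ q ^ 2) : ∃ B : Finset F, (∀ a ∈ B, a + star a ≠ 1) ∧ #B = n ∧
      #(B ∪ B.image fun a => 1 - star a) = 2 * n := by
  induction n with
  | zero => exact ⟨∅, by simp⟩
  | succ n ih =>
    obtain ⟨B, h1, h2, h3⟩ := ih (by omega)
    obtain ⟨S, s1, s2⟩ := card_eig hq hst (-1)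
    obtain ⟨τ, hτ⟩ := exists_tr_one F
    obtain ⟨a, -, ha⟩ := exists_mem_notMem_of_card_lt_card (t := univ)
      (s := (B ∪ B.image fun a => 1 - star a) ∪ (insert 0 S).image (· + τ)) (by
        have := card_union_le (B ∪ B.image fun a => 1 - star a) ((insert 0 S).image (· + τ))
        have := card_image_le (s := insert 0 S) (f := (· + τ))
        have := card_insert_le 0 S
        have := two_le_q' hq
        rw [card_univ, hq]; omega)
    simp only [mem_union, not_or, mem_image, not_exists, not_and] at ha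
    have a1 : a + star a ≠ 1 := fun e => ha.2 (a - τ) (by
      by_cases e' : a - τ = 0
      · simp [e']
      · exact mem_insert_of_mem (s2 _ e' (by rw [star_sub]; linear_combination e - hτ))) (by simp)
    refine ⟨insert a B, by simpa [a1] using h1, by rw [card_insert_of_notMem ha.1.1, h2], ?_⟩
    rw [image_insert, insert_union, union_insert, card_insert_of_notMem, card_insert_of_notMem, h3]
    · ring
    · simp only [mem_union, mem_image, not_or, not_exists, not_and]
      exact ⟨fun e => ha.1.2 _ e (by simp), fun b hb e => ha.1.1 (by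
        rwa [show a = b from star_injective (by linear_combination e)])⟩
    · simp only [mem_insert, mem_union, mem_image, not_or, not_exists, not_and]
      exact ⟨fun e => a1 (by linear_combination e), ha.1⟩

variable {h : HF F K} {Ψ : AddChar F ℂ} {n : ℕ}
  {b : Basis K ℂ (End ℂ (Fin n → ℂ))} {L : Subgroup (K ≃ₗ[F] K)} [Fintype L]
  {ρ : Representation ℂ L (Fin n → ℂ)} {T : Subgroup (U1 K)}
  {w : WL h Ψ b ρ} {φ : L} {σ : K →ₐ[F] K} {k : (U1 F →* ℂˣ) → ℕ}

theorem WT_false (c : WT w T φ σ k) {d : ℕ} (hq : Fintype.card F = q ^ 2) (hst : ∀ t : F, star t = t ^ q)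
    (q3 : 3 ≤ q) (hK : finrank F K = 7) (hN : ∀ a ∈ T, Algebra.norm F (a.1 : K) = 1)
    (ht : d * Nat.card T * (q + 1) = q ^ 7 + 1) (hd : d = 1 ∨ d = 7 ∧ q % 7 = 6) : False := by
  have nb : ∀ {z : U1 F} {γ}, γ ∈ Bl T z → Algebra.norm F γ = z.1 ^ 7 * Algebra.norm F (γ + 1) ∧
      γ + star γ = -1 ∧ γ ∉ (⊥ : Subalgebra F K) := fun {z γ} hγ => by
    obtain ⟨a, ha, a1, rfl⟩ := mem_Bl.1 hγ
    refine ⟨?_, cay_mem (c.nm ha a1)⟩
    nth_rw 1 [cay_eq (c.nm ha a1)]
    rw [map_mul, Subgroup.coe_mul, Units.val_mul, map_mul, hN a ha, io_val, Algebra.norm_algebraMap, hK, one_mul]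
  have ex : ∀ a : F, ∃ S : Finset F, (a + star a ≠ 1 → #S ≤ q - 1) ∧
      ∀ γ ∈ Bl T (1 : U1 F), Algebra.norm F (γ + algebraMap F K a) ∈ S := fun a => by
    by_cases e : a + star a = 1
    · exact ⟨univ, fun k => absurd e k, by simp⟩
    have b0 : 1 - a - star a ≠ 0 := fun k => e (by linear_combination -k)
    have b1 : star (1 - a - star a)⁻¹ = (1 - a - star a)⁻¹ := by simp [sub_right_comm]
    obtain ⟨z, hz⟩ := c.perm (c' := (1 - a - star a)⁻¹ * a) (inv_ne_zero b0) b1
      (by rw [star_mul', b1]; field_simp; ring) 1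
    obtain ⟨S, s1, s2⟩ := card_eig hq hst (-(z.1 ^ 7 : F)⁻¹)
    refine ⟨S, fun _ => s1, fun γ hγ => s2 _ (fun k => (nb hγ).2.2 (Algebra.mem_bot.2 ⟨-a, by
      rw [map_neg]; linear_combination -Algebra.norm_eq_zero_iff.1 k⟩)) ?_⟩
    obtain ⟨e1, e2, -⟩ := nb (hz γ hγ)
    have e3 := star_PN hK e2 0
    rw [map_zero, add_zero, star_zero, sub_zero, map_one] at e3
    rw [← neg_eq_iff_eq_neg.2 e3, Algebra.smul_def, map_mul, ← mul_add, map_mul, Algebra.norm_algebraMap,
      star_mul', star_pow, b1] at e1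
    refine mul_left_cancel₀ (pow_ne_zero (finrank F K) (inv_ne_zero b0)) ?_
    rw [mul_left_comm, e1]
    have := z.1.ne_zero
    field_simp
  choose S s1 s2 using ex
  have cb := c.card_Bl (z := 1)
  have key := fun B hB => cay_key hK _ (fun γ hγ => (nb hγ).2.1) B S hB fun γ hγ a _ => s2 a γ hγ
  rcases hd with rfl | ⟨rfl, h5⟩
  · obtain ⟨B, h1, h2, h3⟩ := exists_pairs hq hst 3 (by nlinarith)
    obtain ⟨a, -, ha⟩ := exists_mem_notMem_of_card_lt_card (t := univ) (h3.trans_lt (by
      rw [card_univ, hq]; nlinarith))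
    have := key (insert a B) ((show 7 = _ by rw [card_insert_of_notMem ha, h3]).trans_le (card_le_card (by
      rw [insert_union]; gcongr; exact subset_insert _ _)))
    rw [prod_insert fun k => ha (mem_union_left _ k)] at this
    have a1 := prod_le_pow_card B _ _ fun a ha => s1 a (h1 a ha)
    have a2 := (card_le_univ (S a)).trans_eq hq
    have a3 := Nat.mul_le_mul_right (q + 1) (Nat.add_le_add_right
      (this.trans (Nat.mul_le_mul_left 7 (Nat.mul_le_mul a2 a1))) 1)
    obtain ⟨r, rfl⟩ : ∃ r, q = r + 3 := ⟨q - 3, by omega⟩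
    rw [cb, ← one_mul (Nat.card T), ht, h2, show r + 3 - 1 = r + 2 from rfl] at a3
    nlinarith [Nat.zero_le (r ^ 7), Nat.zero_le (r ^ 6), Nat.zero_le (r ^ 5), Nat.zero_le (r ^ 4),
      Nat.zero_le (r ^ 3), Nat.zero_le (r ^ 2)]
  · obtain ⟨B, h1, h2, h3⟩ := exists_pairs hq hst 4 (by nlinarith [show 6 ≤ q by omega])
    have a1 := prod_le_pow_card B _ _ fun a ha => s1 a (h1 a ha)
    have a3 := Nat.mul_le_mul_right (q + 1) (Nat.mul_le_mul_left 7 (Nat.add_le_add_right
      ((key B (by omega)).trans (Nat.mul_le_mul_left 7 a1)) 1))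
    obtain ⟨r, rfl⟩ : ∃ r, q = r + 6 := ⟨q - 6, by omega⟩
    rw [cb, ht, h2, show r + 6 - 1 = r + 5 from rfl] at a3
    nlinarith [Nat.zero_le (r ^ 7), Nat.zero_le (r ^ 6), Nat.zero_le (r ^ 5), Nat.zero_le (r ^ 4),
      Nat.zero_le (r ^ 3), Nat.zero_le (r ^ 2)]

end Cfsg.Agent.H6.U7
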