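import Cfsg.Agent.H1.U7.X1

/-! Constituents of a character which is almost regular on a subgroup with automizer seven. -/

set_option autoImplicit false
set_option linter.unusedSectionVars false

namespace Cfsg.Agent.H6.U7

open Finset Cfsg.Agent.H6.S5

theorem fin4 {J : Type*} [Fintype J] [DecidableEq J] (G x : J → ℤ) {n δ : ℤ} (hn : n = 1 ∨ n = 7)
    (G0 : ∀ j, 0 ≤ G j) (sG : ∑ j, G j = n) (sx : ∑ j, x j = -δ) (δ0 : 0 ≤ δ)
    (z : ∀ j, G j = 0 → x j = 1) (ng : ∀ j, x j < 0 → G j = n ∧ x j = -1) :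
    (∃ j, univ = ({j} : Finset J)) ∨
      (δ = 0 ∧ ∃ i j, i ≠ j ∧ G i = 0 ∧ G j ≠ 0 ∧ univ = ({i, j} : Finset J)) ∨
      (δ = 0 ∧ n = 7 ∧ (∀ j, x j = 0) ∧ ∃ j, G j = 1 ∨ G j = 2 ∨ G j = 3) := by
  by_cases h : ∃ j, x j < 0
  · obtain ⟨j, hj⟩ := h
    obtain ⟨h1, h2⟩ := ng j hj
    rw [← add_sum_erase _ _ (mem_univ j)] at sG sx
    have h3 := (sum_eq_zero_iff_of_nonneg fun i _ => G0 i).1 (show ∑ i ∈ univ.erase j, G i = 0 by omega)
    rw [sum_congr rfl fun i hi => z i (h3 i hi), sum_const, nsmul_eq_mul, mul_one] at sx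
    rcases (show (univ.erase j).card = 0 ∨ (univ.erase j).card = 1 by omega) with e | e
    · exact .inl ⟨j, by rw [← insert_erase (mem_univ j), card_eq_zero.1 e]; rfl⟩
    · obtain ⟨i, hi⟩ := card_eq_one.1 e
      have h4 : i ∈ univ.erase j := hi ▸ mem_singleton_self i
      exact .inr (.inl ⟨by omega, i, j, ne_of_mem_erase h4, h3 i h4, by omega, by
        rw [← insert_erase (mem_univ j), hi, pair_comm]⟩)
  push Not at h
  have h1 := sum_nonneg (s := univ) fun j _ => h j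
  have h2 := fun j => (sum_eq_zero_iff_of_nonneg fun i _ => h i).1 (show ∑ i, x i = 0 by omega) j (mem_univ j)
  have h3 : ∀ j, 1 ≤ G j := fun j => by have := G0 j; have := z j; have := h2 j; omega
  have h4 : (univ : Finset J).card ≠ 0 := fun e => by rw [card_eq_zero.1 e, sum_empty] at sG; omega
  by_cases h5 : (univ : Finset J).card = 1
  · exact .inl (card_eq_one.1 h5)
  have h6 := (card_nsmul_le_sum univ G 1 fun j _ => h3 j).trans_eq sG
  rw [nsmul_eq_mul] at h6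
  refine .inr (.inr ⟨by omega, by omega, h2, by_contra fun h7 => ?_⟩)
  have h9 := (card_nsmul_le_sum univ G 4 fun j _ => by
    have := h3 j; have := not_exists.1 h7 j; omega).trans_eq sG
  rw [nsmul_eq_mul] at h9
  omega

namespace XE

variable {I Λ : Type*} [Fintype I] [Fintype Λ] [DecidableEq I] [DecidableEq Λ] (D : XE I Λ)
  {l k : Λ} {ψ : I}

/-- `O` singles out the trivial character, if it belongs to the block -/
structure Triv (O : I → Prop) : Prop where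
  o1 : ∀ ψ, (∀ l, l ≠ D.e → D.m l ψ = 0) → O ψ
  o2 : ∀ ψ χ, O ψ → O χ → ψ = χ
  o3 : ∀ ψ, O ψ → D.m D.e ψ = 1 ∧ ∀ l, l ≠ D.e → D.m l ψ = 0
  hX : ∀ ψ, ¬ D.Small ψ

variable {D} {O : I → Prop}

theorem Triv.pos (h : D.Triv O) (hk : k ≠ D.e) (c : D.Cst ψ) (o : ¬ O ψ) : 1 ≤ D.m k ψ :=
  (D.m_nonneg k ψ).lt_of_ne fun e => o (h.o1 ψ fun l hl => by rw [c l k hl hk, e])

theorem Triv.main (h : D.Triv O) {J : Type*} [Fintype J] [DecidableEq J] (p : J → I) {n δ : ℤ}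
    (hn : n = 1 ∨ n = 7) (hδ : δ = 0 ∨ δ = 1) (t : 65 ≤ Fintype.card Λ ∨ Fintype.card Λ = 43 ∧ n = 1)
    (a2 : ∀ l, l ≠ D.e → ∑ j, D.m l (p j) = n) (a3 : ∑ j, D.m D.e (p j) = n - δ)
    (num : ∀ ψ (g x : ℤ), 1 ≤ g → g ≤ n → (x = 1 ∨ x = 2) → D.d ψ = g * Fintype.card Λ - x →
      g = n ∧ x = 1) :
    (∃ j, univ = ({j} : Finset J)) ∨
      (δ = 0 ∧ ∃ i j, i ≠ j ∧ O (p i) ∧ ¬ O (p j) ∧ univ = ({i, j} : Finset J)) ∨
      (δ = 0 ∧ n = 7 ∧ ∃ ψ, D.d ψ = Fintype.card Λ ∨ D.d ψ = 2 * Fintype.card Λ ∨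
        D.d ψ = 3 * Fintype.card Λ) := by
  obtain ⟨k, hk, -⟩ := D.exists_new ∅ (by simp) (by have := D.big; simp; omega)
  have s : ∀ f : I → ℤ, ∑ χ, ((univ.filter fun j => p j = χ).card : ℤ) * f χ = ∑ j, f (p j) := fun f => by
    rw [← sum_fiberwise' univ p f]; simp
  have c : ∀ j, D.Cst (p j) := fun j => t.elim (fun t =>
    D.const t h.hX (fun χ => (univ.filter fun j => p j = χ).card)
      (fun _ => Nat.cast_nonneg _) (fun l hl => (s _).trans (a2 l hl)) (by rw [s]; omega)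
      (Nat.cast_pos.2 (card_pos.2 ⟨j, by simp⟩))) fun t => D.const' h.hX p (t.2 ▸ a2) (by omega) j t.1
  have le := fun S => (sum_sub_le (fun j => D.m k (p j)) (fun j => D.m_nonneg _ _) S).trans_eq (a2 k hk)
  have sx : ∑ j, (D.m D.e (p j) - D.m k (p j)) = -δ := by rw [sum_sub_distrib, a2 k hk, a3]; ring
  have o : ∀ j, D.m k (p j) = 0 ↔ O (p j) := fun j =>
    ⟨fun e => by_contra fun n => by have := h.pos hk (c j) n; omega, fun e => (h.o3 _ e).2 k hk⟩
  rcases fin4 (fun j => D.m k (p j)) (fun j => D.m D.e (p j) - D.m k (p j)) hn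
    (fun j => D.m_nonneg _ _) (a2 k hk) sx (by omega)
    (fun j e => by rw [(h.o3 _ ((o j).1 e)).1, e]; rfl) (fun j hj => by
      have l1 := le {j}
      rw [sum_singleton] at l1
      have h1 := D.m_nonneg D.e (p j)
      have h2 : -3 < D.m D.e (p j) - D.m k (p j) := by nlinarith [D.sq_le hk (p j)]
      have := num (p j) (D.m k (p j)) (D.m k (p j) - D.m D.e (p j)) (by omega) l1 (by omega)
        (by rw [(c j).deg hk]; ring)
      omega)
    with e | ⟨e, i, j, e1, e2, e3, e4⟩ | ⟨e, e', e1, j, e2⟩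
  · exact .inl e
  · exact .inr (.inl ⟨e, i, j, e1, (o i).1 e2, mt (o j).2 e3, e4⟩)
  refine .inr (.inr ⟨e, e', p j, ?_⟩)
  rw [(c j).deg hk, e1, add_zero]
  rcases e2 with f | f | f <;> simp [f]

end XE

end Cfsg.Agent.H6.U7
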